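import Mathlib

/-! Abstract Shintani descent: elementary identities for an automorphism `σ` of a group. -/

set_option autoImplicit false

namespace Cfsg.Agent.Lib.Shintani

variable {X : Type*} [Group X]

theorem pow_apply_comm (σ : MulAut X) (m n : ℕ) (y : X) :
    (σ ^ m) ((σ ^ n) y) = (σ ^ n) ((σ ^ m) y) := by
  rw [← MulAut.mul_apply, ← MulAut.mul_apply, ← pow_add, ← pow_add, add_comm]

theorem pow_succ_apply (σ : MulAut X) (n : ℕ) (y : X) :
    (σ ^ (n + 1)) y = (σ ^ n) (σ y) := by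
  rw [pow_succ, MulAut.mul_apply]

theorem pow_succ_apply' (σ : MulAut X) (n : ℕ) (y : X) :
    (σ ^ (n + 1)) y = σ ((σ ^ n) y) := by
  rw [pow_succ', MulAut.mul_apply]

theorem fix_of_fix (σ : MulAut X) (y : X) (hy : σ y = y) (n : ℕ) :
    (σ ^ n) y = y := by
  induction n with
  | zero => simp
  | succ n ih => rw [pow_succ, MulAut.mul_apply, hy, ih]

/-- The norm of `g = a σ(a)⁻¹`. -/
theorem norm_eq (σ : MulAut X) (a : X) (d : ℕ) :
    ((List.range d).map (fun i => (σ ^ i) (a * (σ a)⁻¹))).prod = a * ((σ ^ d) a)⁻¹ := by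
  induction d with
  | zero => simp
  | succ d ih =>
    rw [List.range_succ, List.map_append, List.prod_append, ih]
    simp only [List.map_cons, List.map_nil, List.prod_cons, List.prod_nil, mul_one, map_mul,
      map_inv]
    rw [pow_succ_apply]
    group

/-- `x = σᵉ(a)⁻¹ a` is fixed by `σ` when `a σ(a)⁻¹` is fixed by `σᵉ`. -/
theorem shintani_fixed (σ : MulAut X) (e : ℕ) (a : X)
    (hg : (σ ^ e) (a * (σ a)⁻¹) = a * (σ a)⁻¹) :
    σ (((σ ^ e) a)⁻¹ * a) = ((σ ^ e) a)⁻¹ * a := by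
  simp only [map_mul, map_inv] at hg ⊢
  rw [← pow_succ_apply', pow_succ_apply]
  have h : (σ ^ e) a = a * (σ a)⁻¹ * ((σ ^ e) (σ a)) := by
    rw [← hg]; group
  rw [h]; group

/-- the converse of `shintani_fixed`. -/
theorem shintani_fixed' (σ : MulAut X) (e : ℕ) (a : X)
    (hx : σ (((σ ^ e) a)⁻¹ * a) = ((σ ^ e) a)⁻¹ * a) :
    (σ ^ e) (a * (σ a)⁻¹) = a * (σ a)⁻¹ := by
  simp only [map_mul, map_inv] at hx ⊢
  rw [← pow_succ_apply', pow_succ_apply] at hx
  have h : a = (σ ^ e) a * (((σ ^ e) (σ a))⁻¹ * σ a) := by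
    rw [hx]; group
  have h2 : a * (σ a)⁻¹ = (σ ^ e) a * ((σ ^ e) (σ a))⁻¹ := by
    nth_rewrite 1 [h]; group
  exact h2.symm

/-- Powers: `x^d = σ^{ed}(a)⁻¹ a`. -/
theorem shintani_pow (σ : MulAut X) (e : ℕ) (a : X)
    (hx : σ (((σ ^ e) a)⁻¹ * a) = ((σ ^ e) a)⁻¹ * a) (d : ℕ) :
    (((σ ^ d) ^ e) a)⁻¹ * a = (((σ ^ e) a)⁻¹ * a) ^ d := by
  have hcomm : (σ ^ d) ^ e = (σ ^ e) ^ d := by rw [← pow_mul, ← pow_mul, mul_comm]
  rw [hcomm]
  have hτ := fix_of_fix σ _ hx e
  clear hcomm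
  induction d with
  | zero => simp
  | succ d ih =>
    have h := fix_of_fix (σ ^ e) _ hτ d
    simp only [map_mul, map_inv] at h
    rw [pow_succ_apply (σ ^ e) d a, pow_succ', ← ih]
    rw [← h]
    group

/-- The product of the twisted values `σ^i g`, with `σ^e g = g`, is fixed by `σ^e`. -/
theorem norm_fixed (σ : MulAut X) (e : ℕ) (g : X) (hg : (σ ^ e) g = g) (d : ℕ) :
    (σ ^ e) ((List.range d).map (fun i => (σ ^ i) g)).prod =
      ((List.range d).map (fun i => (σ ^ i) g)).prod := by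
  induction d with
  | zero => simp
  | succ d ih =>
    rw [List.range_succ, List.map_append, List.prod_append, map_mul, ih]
    simp only [List.map_cons, List.map_nil, List.prod_cons, List.prod_nil, mul_one]
    rw [pow_apply_comm, hg]

end Cfsg.Agent.Lib.Shintani
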